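import Cfsg.Agent.Solv.FrattiniP
import Cfsg.Prelude.Def_SolvableStructure

/-!
# Carter subgroups
-/

namespace CF.Solv

open Subgroup Cfsg
open scoped Pointwise commutatorElement

universe u

variable {G : Type*} [Group G] {p : ℕ}

theorem isNilpotent_of_forall_commute [Finite G] {C : Subgroup G}
    (h : ∀ a ∈ C, ∀ b ∈ C, (orderOf a).Coprime (orderOf b) → Commute a b) :
    Group.IsNilpotent C := by
  refine isNilpotent_of_sylow_commute fun p q hp hq hpq P => ⟨default, ?_⟩
  refine le_trans (fun b hb => mem_centralizer_iff.mpr fun a ha => ?_)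
    (centralizer_le_normalizer _)
  obtain ⟨k, hk⟩ := IsPGroup.iff_orderOf.mp P.isPGroup' ⟨a, ha⟩
  obtain ⟨l, hl⟩ := IsPGroup.iff_orderOf.mp (default : Sylow q C).isPGroup' ⟨b, hb⟩
  rw [orderOf_mk] at hk hl
  refine Subtype.ext (h a a.2 b b.2 ?_)
  rw [orderOf_coe, orderOf_coe, hk, hl]
  exact ((Nat.coprime_primes hp.out hq.out).mpr hpq).pow _ _

/-- If `K N / N` is nilpotent for a normal `p`-subgroup `N`, the normalizer in `K` of a Hall
`p'`-subgroup of `K` is nilpotent. -/
theorem isNilpotent_inf_normalizer_isPiHallOf [Finite G] [hp : Fact p.Prime] {K N Q : Subgroup G}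
    [N.Normal] (hN : IsPGroup p N) [Group.IsNilpotent (K.map (QuotientGroup.mk' N))]
    (hQ : IsPiHallOf {p}ᶜ Q K) : Group.IsNilpotent (K ⊓ normalizer (Q : Set G) : Subgroup G) := by
  have h0 : N ⊓ Q = ⊥ := inf_eq_bot_of_isPGroup_of_coprime hN
    ((piNum_compl_singleton_iff hp.out).mp hQ.2.1)
  have key : ∀ a ∈ K ⊓ normalizer (Q : Set G), ∀ b ∈ K ⊓ normalizer (Q : Set G),
      (orderOf a).Coprime (orderOf b) → ¬ p ∣ orderOf b → Commute a b := by
    intro a ha b hb hab hbp
    have hbQ : b ∈ Q := le_of_le_normalizer_isPiHallOf hQ (zpowers_le.mpr hb.1)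
      (zpowers_le.mpr hb.2) (by
        rw [Nat.card_zpowers, piNum_compl_singleton_iff hp.out]
        exact (hp.out.coprime_iff_not_dvd.mpr hbp).symm) (mem_zpowers b)
    rw [← commutatorElement_eq_one_iff_commute, ← mem_bot, ← h0]
    refine mem_inf.mpr ⟨?_, Q.mul_mem ((mem_normalizer_iff.mp ha.2 b).mp hbQ) (Q.inv_mem hbQ)⟩
    rw [← QuotientGroup.eq_one_iff, ← QuotientGroup.mk'_apply,
      map_commutatorElement, commutatorElement_eq_one_iff_commute]
    exact commute_of_coprime_orderOf (mem_map_of_mem _ ha.1) (mem_map_of_mem _ hb.1)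
      (hab.of_dvd (orderOf_map_dvd _ _) (orderOf_map_dvd _ _))
  refine isNilpotent_of_forall_commute fun a ha b hb hab => ?_
  by_cases h : p ∣ orderOf b
  · exact (key b hb a ha hab.symm fun h' =>
      hp.out.one_lt.ne' (Nat.eq_one_of_dvd_coprimes hab h' h)).symm
  · exact key a ha b hb hab h

/-- `C` is a Carter subgroup of `H` (inside `G`). -/
def CarterIn (C H : Subgroup G) : Prop :=
  C ≤ H ∧ Group.IsNilpotent C ∧ H ⊓ normalizer (C : Set G) ≤ C

theorem carterIn_top_iff {C : Subgroup G} : CarterIn C ⊤ ↔ IsCarterSubgroup C :=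
  ⟨fun h => ⟨h.2.1, le_antisymm (by simpa using h.2.2) le_normalizer⟩,
    fun h => ⟨le_top, h.1, by rw [h.2]; exact inf_le_right⟩⟩

theorem CarterIn.of_le {C H K : Subgroup G} (h : CarterIn C H) (h1 : C ≤ K) (h2 : K ≤ H) :
    CarterIn C K := ⟨h1, h.2.1, (inf_le_inf_right _ h2).trans h.2.2⟩

theorem carterIn_of_isCarter {C K : Subgroup G} (h : IsCarterSubgroup C) (h1 : C ≤ K) :
    CarterIn C K := (carterIn_top_iff.mpr h).of_le h1 le_top

theorem carterIn_iff_subgroupOf {C H : Subgroup G} :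
    CarterIn C H ↔ C ≤ H ∧ IsCarterSubgroup (C.subgroupOf H) := by
  refine and_congr_right fun h => and_congr ⟨fun _ => isNilpotent_subgroupOf C H,
    fun _ => Group.nilpotent_of_mulEquiv (subgroupOfEquivOfLe h)⟩ ?_
  rw [← subgroupOf_normalizer_eq h, subgroupOf_inj]
  exact ⟨fun h1 => le_antisymm (le_inf (by rwa [inf_comm]) inf_le_right)
    (inf_le_inf_right _ le_normalizer), fun h1 => by rw [inf_comm, h1]; exact inf_le_left⟩

theorem carterIn_map_subtype_iff {H : Subgroup G} {C : Subgroup H} :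
    CarterIn (C.map H.subtype) H ↔ IsCarterSubgroup C := by
  rw [carterIn_iff_subgroupOf, subgroupOf, comap_map_eq_self_of_injective H.subtype_injective]
  exact and_iff_right (map_subtype_le C)

theorem CarterIn.smul {C H : Subgroup G} (h : CarterIn C H) (g : G) :
    CarterIn (MulAut.conj g • C) (MulAut.conj g • H) := by
  have := h.2.1
  refine ⟨pointwise_smul_le_pointwise_smul_iff.mpr h.1, isNilpotent_map _ C, ?_⟩
  rw [normalizer_conj_smul, ← Subgroup.smul_inf]
  exact pointwise_smul_le_pointwise_smul_iff.mpr h.2.2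

theorem CarterIn.conj {C H : Subgroup G} (h : CarterIn C H) {g : G}
    (hg : g ∈ normalizer (H : Set G)) : CarterIn (MulAut.conj g • C) H := by
  have := h.smul g
  rwa [conj_smul_eq_iff.mpr hg] at this

theorem isCarter_conj_smul {C : Subgroup G} (h : IsCarterSubgroup C) (g : G) :
    IsCarterSubgroup (MulAut.conj g • C) :=
  carterIn_top_iff.mp ((carterIn_top_iff.mpr h).conj (by rw [normalizer_eq_top]; trivial))

theorem CarterIn.eq_of_isNilpotent {C H K : Subgroup G} (h : CarterIn C H) (h1 : C ≤ K)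
    (h2 : K ≤ H) [Group.IsNilpotent K] : C = K := by
  by_contra hne
  exact (lt_inf_normalizer_of_isNilpotent (lt_of_le_of_ne h1 hne)).not_ge (h.of_le h1 h2).2.2

theorem carterIn_conj_of_conj {H : Subgroup G}
    (ih : ∀ C D : Subgroup H, IsCarterSubgroup C → IsCarterSubgroup D →
      ∃ g : H, MulAut.conj g • C = D) {C D : Subgroup G} (hC : CarterIn C H)
    (hD : CarterIn D H) : ∃ g ∈ H, MulAut.conj g • C = D := by
  obtain ⟨g, hg⟩ := ih _ _ (carterIn_iff_subgroupOf.mp hC).2 (carterIn_iff_subgroupOf.mp hD).2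
  refine ⟨g, g.2, ?_⟩
  have := congrArg (Subgroup.map H.subtype) hg
  rwa [map_conj_smul, map_subgroupOf_eq_of_le hC.1, map_subgroupOf_eq_of_le hD.1] at this

theorem normalizer_eq_of_carter_conj {C H : Subgroup G} (hC : IsCarterSubgroup C) (hCH : C ≤ H)
    (h : ∀ D, CarterIn D H → ∃ g ∈ H, MulAut.conj g • D = C) : normalizer (H : Set G) = H := by
  refine le_antisymm (fun g hg => ?_) le_normalizer
  obtain ⟨x, hx, h1⟩ := h _ ((carterIn_of_isCarter hC hCH).conj hg)
  rw [conj_smul_conj_smul, conj_smul_eq_iff, hC.2] at h1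
  exact (mul_mem_cancel_left hx).mp (hCH h1)

theorem isCarter_map_mk'_of_normalizer {C : Subgroup G} (hC : IsCarterSubgroup C)
    (N : Subgroup G) [N.Normal] (h : normalizer ((C ⊔ N : Subgroup G) : Set G) = C ⊔ N) :
    IsCarterSubgroup (C.map (QuotientGroup.mk' N)) := by
  have := hC.1
  refine ⟨isNilpotent_map _ _, comap_injective (QuotientGroup.mk'_surjective N) ?_⟩
  rw [comap_normalizer_eq_of_surjective _ (QuotientGroup.mk'_surjective N), comap_map_mk', h]

theorem isCarter_conj (G : Type u) [Group G] [Finite G] : Group.IsSolvable G →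
    ∀ C D : Subgroup G, IsCarterSubgroup C → IsCarterSubgroup D →
      ∃ g : G, MulAut.conj g • C = D := by
  revert G
  refine group_induction fun G _ _ ih hG C D hC hD => ?_
  rcases subsingleton_or_nontrivial G with h | h
  · exact ⟨1, Subsingleton.elim _ _⟩
  have ih' : ∀ H : Subgroup G, H ≠ ⊤ → ∀ C D, CarterIn C H → CarterIn D H →
      ∃ g ∈ H, MulAut.conj g • C = D := fun H hH C D =>
    carterIn_conj_of_conj (ih H (card_lt_of_ne_top hH) inferInstance)
  obtain ⟨N, p, hp, hN, -, -, hNp⟩ := exists_isMinNormal_pGroup_le (⊤ : Subgroup G) top_ne_bot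
  have := hN.1
  have : Fact p.Prime := ⟨hp⟩
  have hq : ∀ C, IsCarterSubgroup C → IsCarterSubgroup (C.map (QuotientGroup.mk' N)) := by
    intro C hC
    refine isCarter_map_mk'_of_normalizer hC N ?_
    by_cases h1 : C ⊔ N = ⊤
    · rw [h1, normalizer_eq_top]
    · exact normalizer_eq_of_carter_conj hC le_sup_left fun D hD =>
        ih' _ h1 D C hD (carterIn_of_isCarter hC le_sup_left)
  obtain ⟨x, hx⟩ := ih (G ⧸ N) (card_quotient_lt hN.2.1) inferInstance _ _ (hq C hC) (hq D hD)
  obtain ⟨x, rfl⟩ := QuotientGroup.mk'_surjective N x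
  rw [← map_conj_smul] at hx
  have h1 := congrArg (comap (QuotientGroup.mk' N)) hx
  rw [comap_map_mk', comap_map_mk'] at h1
  suffices H : ∃ g, MulAut.conj g • MulAut.conj x • C = D from
    let ⟨g, hg⟩ := H
    ⟨g * x, by rw [← conj_smul_conj_smul, hg]⟩
  replace hC := isCarter_conj_smul hC x
  generalize MulAut.conj x • C = C at hC h1
  by_cases h2 : D ⊔ N = ⊤
  swap
  · obtain ⟨g, -, hg⟩ := ih' _ h2 C D (carterIn_of_isCarter hC (h1 ▸ le_sup_left))
      (carterIn_of_isCarter hD le_sup_left)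
    exact ⟨g, hg⟩
  have key : ∀ C, IsCarterSubgroup C → C ⊔ N = ⊤ →
      ∃ Q : Subgroup G, IsPiHall {p}ᶜ Q ∧ C = normalizer (Q : Set G) := by
    intro C hC hCN
    have := hC.1
    have h3 := isPiHallOf_map_subtype_iff.mpr (isPiHall_piCore_of_isNilpotent (G := C) {p}ᶜ)
    have h4 := isPiHall_of_isPiHallOf h3 (by
      rw [compl_compl]
      refine PiNum.of_dvd (isPGroup_iff_piNum_singleton.mp hNp) ?_
      have h5 := card_sup_mul_card_inf C N
      rw [hCN, card_top, ← C.card_mul_index, mul_assoc] at h5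
      exact Dvd.intro _ (Nat.eq_of_mul_eq_mul_left Nat.card_pos h5))
    refine ⟨_, h4, ?_⟩
    have : Group.IsNilpotent ((⊤ : Subgroup G).map (QuotientGroup.mk' N)) := by
      rw [← hCN, Subgroup.map_sup, (map_mk'_eq_bot_iff N N).mpr le_rfl, sup_bot_eq]
      exact isNilpotent_map _ _
    have h5 := isNilpotent_inf_normalizer_isPiHallOf hNp (isPiHallOf_top_iff.mpr h4)
    rw [top_inf_eq] at h5
    exact (carterIn_top_iff.mpr hC).eq_of_isNilpotent
      (le_normalizer.trans (normalizer_le_normalizer_map_subtype _)) le_top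
  obtain ⟨Q, hQ, rfl⟩ := key C hC (h1.trans h2)
  obtain ⟨R, hR, rfl⟩ := key D hD h2
  obtain ⟨g, rfl⟩ := isPiHall_conj hQ hR
  exact ⟨g, (normalizer_conj_smul _ _).symm⟩

theorem CarterIn.exists_conj [Finite G] {C D H : Subgroup G} [Group.IsSolvable H]
    (hC : CarterIn C H) (hD : CarterIn D H) : ∃ g ∈ H, MulAut.conj g • C = D :=
  carterIn_conj_of_conj (isCarter_conj H inferInstance) hC hD

/-- Overgroups of Carter subgroups are self-normalizing. -/
theorem normalizer_eq_of_isCarter_le [Finite G] {C H : Subgroup G} [Group.IsSolvable H]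
    (hC : IsCarterSubgroup C) (hCH : C ≤ H) : normalizer (H : Set G) = H :=
  normalizer_eq_of_carter_conj hC hCH fun _ hD => hD.exists_conj (carterIn_of_isCarter hC hCH)

theorem isCarter_map_mk' [Finite G] [Group.IsSolvable G] {C : Subgroup G}
    (hC : IsCarterSubgroup C) (N : Subgroup G) [N.Normal] :
    IsCarterSubgroup (C.map (QuotientGroup.mk' N)) :=
  isCarter_map_mk'_of_normalizer hC N (normalizer_eq_of_isCarter_le hC le_sup_left)

theorem isCarter_map [Finite G] [Group.IsSolvable G] {G' : Type*} [Group G'] {f : G →* G'}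
    (hf : Function.Surjective f) {C : Subgroup G} (hC : IsCarterSubgroup C) :
    IsCarterSubgroup (C.map f) := by
  have := hC.1
  refine ⟨isNilpotent_map _ _, comap_injective hf ?_⟩
  rw [comap_normalizer_eq_of_surjective _ hf, comap_map_eq,
    normalizer_eq_of_isCarter_le hC le_sup_left]

/-- If `G / N` is nilpotent, then `G = C N` for any Carter subgroup `C`. -/
theorem sup_eq_top_of_isCarter [Finite G] [Group.IsSolvable G] {C : Subgroup G}
    (hC : IsCarterSubgroup C) (N : Subgroup G) [N.Normal] [Group.IsNilpotent (G ⧸ N)] :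
    C ⊔ N = ⊤ := by
  rw [← comap_map_mk', (carterIn_top_iff.mpr (isCarter_map_mk' hC N)).eq_of_isNilpotent le_top
    le_rfl, comap_top]

/-- A Carter subgroup of the preimage of a Carter subgroup of `G / N` is a Carter subgroup. -/
theorem isCarter_of_carterIn_comap [Finite G] [Group.IsSolvable G] {N : Subgroup G} [N.Normal]
    {K : Subgroup (G ⧸ N)} (hK : IsCarterSubgroup K) {C : Subgroup G}
    (hC : CarterIn C (K.comap (QuotientGroup.mk' N)))
    (h : C ⊔ N = K.comap (QuotientGroup.mk' N)) : IsCarterSubgroup C := by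
  refine ⟨hC.2.1, le_antisymm (fun g hg => hC.2.2 (mem_inf.mpr ⟨?_, hg⟩)) le_normalizer⟩
  rw [← hK.2, comap_normalizer_eq_of_surjective _ (QuotientGroup.mk'_surjective N), ← h,
    ← conj_smul_eq_iff, smul_sup, conj_smul_eq_iff.mpr hg,
    conj_smul_eq_iff.mpr (by rw [normalizer_eq_top]; trivial)]

theorem exists_isCarter (G : Type u) [Group G] [Finite G] : Group.IsSolvable G →
    ∃ C : Subgroup G, IsCarterSubgroup C := by
  revert G
  refine group_induction fun G _ _ ih hG => ?_
  rcases subsingleton_or_nontrivial G with h | h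
  · exact ⟨⊤, inferInstance, Subsingleton.elim _ _⟩
  obtain ⟨N, p, hp, hN, -, -, hNp⟩ := exists_isMinNormal_pGroup_le (⊤ : Subgroup G) top_ne_bot
  have := hN.1
  have : Fact p.Prime := ⟨hp⟩
  obtain ⟨K, hK⟩ := ih (G ⧸ N) (card_quotient_lt hN.2.1) inferInstance
  set L := K.comap (QuotientGroup.mk' N) with hL
  have := hK.1
  have : Group.IsNilpotent (L.map (QuotientGroup.mk' N)) := by rwa [hL, map_comap_mk']
  obtain ⟨Q, hQ⟩ := exists_isPiHallOf {p}ᶜ L
  have h1 := isNilpotent_inf_normalizer_isPiHallOf hNp hQ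
  have hNL : N ≤ L := le_comap_mk' N K
  have h2 : L ≤ normalizer ((Q ⊔ N : Subgroup G) : Set G) := by
    rw [← comap_map_mk', ← comap_normalizer_eq_of_surjective _ (QuotientGroup.mk'_surjective N),
      ← map_le_iff_le_comap]
    have h3 := isPiHallOf_map hQ (QuotientGroup.mk' N)
    have h4 := isPiHallOf_map_subtype_iff.mpr
      (isPiHall_piCore_of_isNilpotent (G := L.map (QuotientGroup.mk' N)) {p}ᶜ)
    have h5 := le_normalizer.trans (normalizer_le_normalizer_map_subtype
      (piCore {p}ᶜ (L.map (QuotientGroup.mk' N))))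
    rwa [eq_of_isPiHallOf_of_le h3 h4.1 h4.2.1
      (le_of_le_normalizer_isPiHallOf h4 h3.1 (h3.1.trans h5) h3.2.1)]
  have h3 := sup_inf_normalizer_eq_of_isPiHallOf (sup_le hQ.1 hNL) h2
    (isPiHallOf_of_le hQ le_sup_left (sup_le hQ.1 hNL))
  have h4 : Q ≤ L ⊓ normalizer (Q : Set G) := le_inf hQ.1 le_normalizer
  refine ⟨L ⊓ normalizer (Q : Set G), isCarter_of_carterIn_comap hK
    ⟨inf_le_left, h1, fun g hg => ⟨hg.1, ?_⟩⟩ ?_⟩
  · have h5 := isPiHallOf_of_le hQ h4 inf_le_left
    have h6 := isPiHallOf_conj_smul h5 hg.2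
    exact mem_normalizer_of_conj_smul_le
      (le_of_le_normalizer_isPiHallOf h5 h6.1 (h6.1.trans inf_le_right) h6.2.1)
  · rw [sup_comm Q, sup_assoc, sup_eq_right.mpr h4, sup_comm] at h3
    exact h3

theorem exists_carterIn [Finite G] (H : Subgroup G) [Group.IsSolvable H] :
    ∃ C : Subgroup G, CarterIn C H :=
  let ⟨_, hC⟩ := exists_isCarter H inferInstance
  ⟨_, carterIn_map_subtype_iff.mpr hC⟩

end CF.Solv
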